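import Mathlib
import Cfsg.Agent.UGeom.Count
import Cfsg.Prelude.Def_GeometricClasses

/-!
Orthonormal eigenframes of unitary `3 × 3` matrices.
-/

set_option autoImplicit false

namespace CfsgLib.HeisU3

open Matrix Module CfsgLib.UGeom

variable {F : Type*} [Field F] [Fintype F] {q : ℕ}

local notation "V3" => (Fin 3 → F)
local notation "hh" => Cfsg.hermForm 3 F q

/-- The diagonal element. -/
def Dg (d : Fin 3 → Fˣ) : GL (Fin 3) F where
  val := Matrix.diagonal fun i => (d i : F)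
  inv := Matrix.diagonal fun i => ((d i)⁻¹ : Fˣ)
  val_inv := by rw [Matrix.diagonal_mul_diagonal, ← Matrix.diagonal_one]; congr 1; funext i; simp
  inv_val := by rw [Matrix.diagonal_mul_diagonal, ← Matrix.diagonal_one]; congr 1; funext i; simp

theorem Dg_val (d : Fin 3 → Fˣ) : ((Dg d : GL (Fin 3) F) : Matrix (Fin 3) (Fin 3) F) = Matrix.diagonal fun i => (d i : F) :=
  rfl

theorem Dg_comm (d e : Fin 3 → Fˣ) : Dg d * Dg e = Dg e * Dg d := by
  refine Units.ext ?_
  rw [Units.val_mul, Units.val_mul, Dg_val, Dg_val, Matrix.diagonal_mul_diagonal, Matrix.diagonal_mul_diagonal]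
  congr 1; funext i; exact mul_comm _ _

theorem det_Dg (d : Fin 3 → Fˣ) : Matrix.GeneralLinearGroup.det (Dg d) = d 0 * d 1 * d 2 := by
  refine Units.ext ?_
  show Matrix.det (Matrix.diagonal fun i => (d i : F)) = _
  rw [Matrix.det_diagonal, Fin.prod_univ_three]
  push_cast
  ring

variable (C : Conj F q)

theorem mem_GU_iff {g : GL (Fin 3) F} :
    g ∈ Cfsg.GU 3 F q ↔
      ∀ u v : V3, hh ((g : Matrix (Fin 3) (Fin 3) F) *ᵥ u) ((g : Matrix (Fin 3) (Fin 3) F) *ᵥ v) = hh u v :=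
  Iff.rfl

include C

theorem Dg_mem {d : Fin 3 → Fˣ} (hd : ∀ i, (d i : F) * C.σ (d i) = 1) : Dg d ∈ Cfsg.GU 3 F q := by
  refine mem_GU_iff.2 fun u v => ?_
  rw [Dg_val, form_eq C, form_eq C]
  refine Finset.sum_congr rfl fun i _ => ?_
  rw [Matrix.mulVec_diagonal, Matrix.mulVec_diagonal, map_mul]
  linear_combination (u i * C.σ (v i)) * hd i

/-- The norm of a vector is a norm. -/
theorem exists_norm {y : F} (hy : C.σ y = y) (hy0 : y ≠ 0) : ∃ t : F, t * C.σ t = y := by
  obtain ⟨ζ, hζ⟩ := IsCyclic.exists_generator (α := Fˣ)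
  have hord : orderOf ζ = (q + 1) * (q - 1) := by
    rw [orderOf_eq_card_of_forall_mem_zpowers hζ, Nat.card_units, Nat.card_eq_fintype_card, C.card,
      ← Nat.sq_sub_sq, one_pow]
  obtain ⟨k, hk⟩ := (Submonoid.mem_powers_iff (Units.mk0 y hy0) ζ).1
    (mem_powers_iff_mem_zpowers.2 (hζ _))
  have h1 : (Units.mk0 y hy0) ^ (q - 1) = 1 := by
    have h2 : (Units.mk0 y hy0) ^ q = Units.mk0 y hy0 := Units.ext (by
      rw [Units.val_pow_eq_pow_val, Units.val_mk0, ← C.pow, hy])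
    have hq := C.two_le
    rw [show q = q - 1 + 1 by omega, pow_succ] at h2
    exact mul_eq_right.mp h2
  rw [← hk, ← pow_mul] at h1
  have h3 := orderOf_dvd_of_pow_eq_one h1
  rw [hord] at h3
  obtain ⟨l, rfl⟩ := Nat.dvd_of_mul_dvd_mul_right (by have := C.two_le; omega) h3
  refine ⟨((ζ ^ l : Fˣ) : F), ?_⟩
  rw [C.pow, ← pow_succ', ← Units.val_pow_eq_pow_val, ← pow_mul, mul_comm, hk, Units.val_mk0]

/-- A vector of non-zero norm can be normalised. -/
theorem exists_scale {f : V3} (hf : hh f f ≠ 0) : ∃ t : F, hh (t • f) (t • f) = 1 := by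
  obtain ⟨t, ht⟩ := exists_norm C (y := (hh f f)⁻¹) (by rw [map_inv₀, form_conj C]) (inv_ne_zero hf)
  exact ⟨t, by rw [form_smul_left, form_smul_right C, ← mul_assoc, ht, inv_mul_cancel₀ hf]⟩

/-- A matrix with orthonormal columns. -/
theorem exists_cols (e : Fin 3 → V3) (he : ∀ i j, hh (e i) (e j) = if i = j then 1 else 0) :
    ∃ g : GL (Fin 3) F, g ∈ Cfsg.GU 3 F q ∧ ∀ i, (g : Matrix (Fin 3) (Fin 3) F) *ᵥ Pi.single i 1 = e i := by
  let M : Matrix (Fin 3) (Fin 3) F := Matrix.of fun i j => e j i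
  have hM : ∀ i, M *ᵥ Pi.single i 1 = e i := fun i => by rw [Matrix.mulVec_single_one]; rfl
  have hexp : ∀ u, M *ᵥ u = u 0 • e 0 + u 1 • e 1 + u 2 • e 2 := fun u => by
    funext r
    simp [M, Matrix.mulVec, dotProduct, Fin.sum_univ_three]
    ring
  have hpres : ∀ u v, hh (M *ᵥ u) (M *ᵥ v) = hh u v := fun u v => by
    simp only [hexp, form_add_left, form_add_right C, form_smul_left, form_smul_right C, he]
    rw [form_eq C, Fin.sum_univ_three]
    simp
    ring
  have hdet : M.det ≠ 0 := by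
    intro h
    obtain ⟨v, hv, hv0⟩ := Matrix.exists_mulVec_eq_zero_iff.2 h
    refine hv (ext_form C fun x => ?_)
    rw [form_zero_left, ← hpres v x, hv0, form_zero_left]
  exact ⟨Matrix.GeneralLinearGroup.mkOfDetNeZero M hdet, mem_GU_iff.2 hpres, hM⟩

omit C in
/-- An eigenframe diagonalises. -/
theorem mul_eq_mul_Dg {x k : GL (Fin 3) F} {d : Fin 3 → Fˣ}
    (h : ∀ i, (x : Matrix (Fin 3) (Fin 3) F) *ᵥ ((k : Matrix (Fin 3) (Fin 3) F) *ᵥ Pi.single i 1) =
      (d i : F) • ((k : Matrix (Fin 3) (Fin 3) F) *ᵥ Pi.single i 1)) :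
    x * k = k * Dg d := by
  refine Units.ext (Matrix.ext_of_mulVec_single fun i => ?_)
  rw [Units.val_mul, Units.val_mul, ← Matrix.mulVec_mulVec, ← Matrix.mulVec_mulVec, h, Dg_val,
    ← Matrix.mulVec_smul]
  congr 1
  funext r
  rw [Matrix.mulVec_diagonal]
  rcases eq_or_ne r i with rfl | hne
  · simp
  · simp [hne]

/-- Eigenvectors for different norm one values are orthogonal. -/
theorem eig_orth {x : GL (Fin 3) F} (hx : x ∈ Cfsg.GU 3 F q) {a b : F} (hb : b * C.σ b = 1) (hab : a ≠ b)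
    {u v : V3} (hu : (x : Matrix (Fin 3) (Fin 3) F) *ᵥ u = a • u) (hv : (x : Matrix (Fin 3) (Fin 3) F) *ᵥ v = b • v) :
    hh u v = 0 := by
  have h := mem_GU_iff.1 hx u v
  rw [hu, hv, form_smul_left, form_smul_right C, ← mul_assoc] at h
  by_contra h0
  have h1 : a * C.σ b = 1 := mul_right_cancel₀ h0 (h.trans (one_mul _).symm)
  exact hab (by linear_combination b * h1 - a * hb)

/-- Three distinct eigenvalues give an eigenframe. -/
theorem diag_three {x : GL (Fin 3) F} (hx : x ∈ Cfsg.GU 3 F q) (d : Fin 3 → Fˣ)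
    (hd : ∀ i, (d i : F) * C.σ (d i) = 1) (hinj : Function.Injective d)
    (hv : ∀ i, ∃ v : V3, v ≠ 0 ∧ (x : Matrix (Fin 3) (Fin 3) F) *ᵥ v = (d i : F) • v) :
    ∃ k ∈ Cfsg.GU 3 F q, x * k = k * Dg d := by
  choose f hf0 hfx using hv
  have horth : ∀ i j, i ≠ j → hh (f i) (f j) = 0 := fun i j hij =>
    eig_orth C hx (hd j) (fun h => hij (hinj (Units.ext h))) (hfx i) (hfx j)
  have hli : LinearIndependent F f := by
    refine Module.End.eigenvectors_linearIndependent' (Matrix.toLin' (x : Matrix (Fin 3) (Fin 3) F))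
      (fun i => (d i : F)) (fun i j h => hinj (Units.ext h)) f fun i => ⟨?_, hf0 i⟩
    rw [Module.End.mem_eigenspace_iff, Matrix.toLin'_apply]
    exact hfx i
  have hn : ∀ i, hh (f i) (f i) ≠ 0 := by
    intro i h0
    refine hf0 i (ext_form C fun u => ?_)
    let bs := basisOfLinearIndependentOfCardEqFinrank hli (by simp)
    have hu := bs.sum_repr u
    simp only [bs, coe_basisOfLinearIndependentOfCardEqFinrank] at hu
    rw [form_zero_left, ← hu, Fin.sum_univ_three, form_add_right C, form_add_right C,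
      form_smul_right C, form_smul_right C, form_smul_right C]
    have hz : ∀ j, hh (f i) (f j) = 0 := fun j => by
      rcases eq_or_ne i j with rfl | hne
      · exact h0
      · exact horth i j hne
    simp [hz]
  choose t ht using fun i => exists_scale C (hn i)
  obtain ⟨k, hk, hke⟩ := exists_cols C (fun i => t i • f i) fun i j => by
    split_ifs with h
    · subst h; exact ht i
    · rw [form_smul_left, form_smul_right C, horth i j h, mul_zero, mul_zero]
  refine ⟨k, hk, mul_eq_mul_Dg fun i => ?_⟩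
  rw [hke, Matrix.mulVec_smul, hfx, smul_comm]

/-- A simple eigenvalue gives an eigenframe. -/
theorem diag_simple {x : GL (Fin 3) F} (hx : x ∈ Cfsg.GU 3 F q) {a b : Fˣ} (hb : (b : F) * C.σ b = 1) (hab : a ≠ b)
    (hpoly : ∀ u : V3, (x : Matrix (Fin 3) (Fin 3) F) *ᵥ ((x : Matrix (Fin 3) (Fin 3) F) *ᵥ u - (b : F) • u) =
      (a : F) • ((x : Matrix (Fin 3) (Fin 3) F) *ᵥ u - (b : F) • u))
    {f : V3} (hf : f ≠ 0) (hfx : (x : Matrix (Fin 3) (Fin 3) F) *ᵥ f = (b : F) • f)
    (hdim : ∀ u : V3, (x : Matrix (Fin 3) (Fin 3) F) *ᵥ u = (b : F) • u → ∃ c : F, u = c • f) :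
    ∃ k ∈ Cfsg.GU 3 F q, x * k = k * Dg ![b, a, a] := by
  have hab' : (a : F) - b ≠ 0 := sub_ne_zero.2 fun h => hab (Units.ext h)
  let M := (x : Matrix (Fin 3) (Fin 3) F)
  have hdec : ∀ u : V3, ∃ (ua : V3) (c : F), u = ua + c • f ∧ M *ᵥ ua = (a : F) • ua := by
    intro u
    obtain ⟨c, hc⟩ := hdim (u - ((a : F) - b)⁻¹ • (M *ᵥ u - (b : F) • u)) (by
      show M *ᵥ _ = _
      rw [Matrix.mulVec_sub, Matrix.mulVec_smul, hpoly u]
      have h1 : ((a : F) - b)⁻¹ * ((a : F) - b) = 1 := inv_mul_cancel₀ hab'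
      match_scalars
      · linear_combination (-1 : F) * h1
      · linear_combination (b : F) * h1)
    refine ⟨((a : F) - b)⁻¹ • (M *ᵥ u - (b : F) • u), c, by rw [← hc]; abel, ?_⟩
    rw [Matrix.mulVec_smul, hpoly u, smul_comm]
  have hff : hh f f ≠ 0 := by
    intro h0
    refine hf (ext_form C fun u => ?_)
    obtain ⟨ua, c, rfl, hua⟩ := hdec u
    have h1 := eig_orth C hx hb (fun h => hab (Units.ext h)) hua hfx
    rw [form_zero_left, ← form_conj C _ f, form_add_left, form_smul_left, h1, h0, mul_zero, add_zero, map_zero]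
  obtain ⟨t, ht⟩ := exists_scale C hff
  have hsingle : ∀ i : Fin 3, hh (Pi.single i (1 : F)) (Pi.single i 1) = 1 := fun i => by
    rw [form_single_right C]; simp
  obtain ⟨⟨k, hk⟩, hke⟩ := exists_GU_move C (u := Pi.single (0 : Fin 3) (1 : F)) (v := t • f)
    (by rw [hsingle, ht]) (by rw [hsingle]; exact one_ne_zero)
  change (k : Matrix (Fin 3) (Fin 3) F) *ᵥ _ = _ at hke
  refine ⟨k, hk, mul_eq_mul_Dg fun i => ?_⟩
  rcases eq_or_ne i 0 with rfl | hi
  · show M *ᵥ _ = _
    rw [hke, Matrix.mulVec_smul, hfx, smul_comm]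
    rfl
  · have hval : (![b, a, a] i : Fˣ) = a := by fin_cases i <;> simp_all
    rw [hval]
    obtain ⟨ua, c, hu, hua⟩ := hdec ((k : Matrix (Fin 3) (Fin 3) F) *ᵥ Pi.single i 1)
    have h0 : hh ((k : Matrix (Fin 3) (Fin 3) F) *ᵥ Pi.single i 1) (t • f) = 0 := by
      rw [← hke, mem_GU_iff.1 hk, form_single_right C]
      simp [hi.symm]
    have h1 := eig_orth C hx hb (fun h => hab (Units.ext h)) hua hfx
    rw [hu, form_smul_right C, form_add_left, form_smul_left, h1, zero_add] at h0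
    have ht0 : t ≠ 0 := fun h => by rw [h, zero_smul, form_zero_left] at ht; exact zero_ne_one ht
    rcases mul_eq_zero.1 h0 with h | h
    · exact absurd h ((map_ne_zero C.σ).2 ht0)
    · rw [(mul_eq_zero.1 h).resolve_right hff, zero_smul, add_zero] at hu
      rw [hu]; exact hua

/-- A non-scalar element with two eigenvalues. -/
theorem diag_two {x : GL (Fin 3) F} (hx : x ∈ Cfsg.GU 3 F q) {a b : Fˣ} (ha : (a : F) * C.σ a = 1)
    (hb : (b : F) * C.σ b = 1) (hab : a ≠ b)
    (hpoly : ((x : Matrix (Fin 3) (Fin 3) F) - (a : F) • 1) * ((x : Matrix (Fin 3) (Fin 3) F) - (b : F) • 1) = 0)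
    (hns : ∀ z : F, (x : Matrix (Fin 3) (Fin 3) F) ≠ z • 1) :
    (∃ k ∈ Cfsg.GU 3 F q, x * k = k * Dg ![b, a, a]) ∨ (∃ k ∈ Cfsg.GU 3 F q, x * k = k * Dg ![a, b, b]) := by
  let M := (x : Matrix (Fin 3) (Fin 3) F)
  let Na : Module.End F V3 := Matrix.toLin' (M - (a : F) • 1)
  let Nb : Module.End F V3 := Matrix.toLin' (M - (b : F) • 1)
  have hNa : ∀ u, Na u = M *ᵥ u - (a : F) • u := fun u => by
    simp [Na, Matrix.sub_mulVec, Matrix.smul_mulVec]
  have hNb : ∀ u, Nb u = M *ᵥ u - (b : F) • u := fun u => by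
    simp [Nb, Matrix.sub_mulVec, Matrix.smul_mulVec]
  have hab0 : Na * Nb = 0 := by
    show (Matrix.toLin' _).comp (Matrix.toLin' _) = 0
    rw [← Matrix.toLin'_mul, hpoly, map_zero]
  have hba0 : Nb * Na = 0 := by
    show (Matrix.toLin' _).comp (Matrix.toLin' _) = 0
    rw [← Matrix.toLin'_mul, show (M - (b : F) • 1) * (M - (a : F) • 1) = (M - (a : F) • 1) * (M - (b : F) • 1) by
      simp only [sub_mul, mul_sub, Matrix.smul_mul, Matrix.mul_smul, one_mul, mul_one]; module, hpoly, map_zero]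
  have hle : LinearMap.range Nb ≤ LinearMap.ker Na := LinearMap.range_le_ker_iff.2 hab0
  have h1 := LinearMap.finrank_range_add_finrank_ker Nb
  have h2 := Submodule.finrank_mono hle
  have hdisj : LinearMap.ker Na ⊓ LinearMap.ker Nb = ⊥ := by
    refine (Submodule.eq_bot_iff _).2 fun u ⟨hu1, hu2⟩ => ?_
    have h3 : ((a : F) - b) • u = 0 := by
      have e1 : Na u = 0 := hu1
      have e2 : Nb u = 0 := hu2
      rw [hNa] at e1; rw [hNb] at e2
      rw [sub_smul, ← sub_eq_zero.1 e1, ← sub_eq_zero.1 e2, sub_self]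
    exact (smul_eq_zero.1 h3).resolve_left (sub_ne_zero.2 fun h => hab (Units.ext h))
  have h3 := Submodule.finrank_sup_add_finrank_inf_eq (LinearMap.ker Na) (LinearMap.ker Nb)
  rw [hdisj, finrank_bot, add_zero] at h3
  have h4 := Submodule.finrank_le (LinearMap.ker Na ⊔ LinearMap.ker Nb)
  have hV : finrank F V3 = 3 := by simp
  have hne : ∀ c : Fˣ, finrank F (LinearMap.ker (Matrix.toLin' (M - (c : F) • 1))) ≠ 3 := by
    intro c h
    have h5 : LinearMap.ker (Matrix.toLin' (M - (c : F) • 1)) = ⊤ := Submodule.eq_top_of_finrank_eq (by rw [h, hV])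
    rw [LinearMap.ker_eq_top, LinearEquiv.map_eq_zero_iff, sub_eq_zero] at h5
    exact hns c h5
  have hna := hne a
  have hnb := hne b
  change finrank F (LinearMap.ker Na) ≠ 3 at hna
  change finrank F (LinearMap.ker Nb) ≠ 3 at hnb
  rcases (show finrank F (LinearMap.ker Nb) = 1 ∨ finrank F (LinearMap.ker Na) = 1 by omega) with h | h
  · left
    obtain ⟨⟨f, hf⟩, hf0, hall⟩ := finrank_eq_one_iff'.1 h
    refine diag_simple C hx hb hab (fun u => ?_) (f := f) (fun e => hf0 (Subtype.ext e))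
      (sub_eq_zero.1 ((hNb f).symm.trans hf)) fun u hu => ?_
    · have h5 := LinearMap.congr_fun hab0 u
      rw [Module.End.mul_apply, hNb, hNa] at h5
      exact sub_eq_zero.1 h5
    · obtain ⟨c, hc⟩ := hall ⟨u, by rw [LinearMap.mem_ker, hNb]; exact sub_eq_zero.2 hu⟩
      exact ⟨c, (congrArg Subtype.val hc).symm⟩
  · right
    obtain ⟨⟨f, hf⟩, hf0, hall⟩ := finrank_eq_one_iff'.1 h
    refine diag_simple C hx ha (Ne.symm hab) (fun u => ?_) (f := f) (fun e => hf0 (Subtype.ext e))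
      (sub_eq_zero.1 ((hNa f).symm.trans hf)) fun u hu => ?_
    · have h5 := LinearMap.congr_fun hba0 u
      rw [Module.End.mul_apply, hNa, hNb] at h5
      exact sub_eq_zero.1 h5
    · obtain ⟨c, hc⟩ := hall ⟨u, by rw [LinearMap.mem_ker, hNa]; exact sub_eq_zero.2 hu⟩
      exact ⟨c, (congrArg Subtype.val hc).symm⟩

end CfsgLib.HeisU3
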