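import Cfsg.Agent.HeisU3.Basic

/-!
An extraspecial group of order 27 of unitary matrices, in standard form.
-/

set_option autoImplicit false

namespace CfsgLib.HeisU3

open Matrix Module CfsgLib.UGeom

variable {F : Type*} [Field F] [Fintype F] {q : ℕ}

local notation "V3" => (Fin 3 → F)
local notation "hh" => Cfsg.hermForm 3 F q

theorem Dg_mul (d e : Fin 3 → Fˣ) : Dg d * Dg e = Dg (d * e) := by
  refine Units.ext ?_
  rw [Units.val_mul, Dg_val, Dg_val, Dg_val, Matrix.diagonal_mul_diagonal]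
  congr 1

theorem Dg_one : Dg (1 : Fin 3 → Fˣ) = (1 : GL (Fin 3) F) := by
  refine Units.ext ?_
  rw [Dg_val, Units.val_one, ← Matrix.diagonal_one]
  congr 1

theorem Dg_pow (d : Fin 3 → Fˣ) (n : ℕ) : Dg d ^ n = Dg (d ^ n) := by
  induction n with
  | zero => rw [pow_zero, pow_zero, Dg_one]
  | succ n ih => rw [pow_succ, ih, Dg_mul, ← pow_succ]

variable (F) in
/-- The cyclic permutation of the coordinates. -/
def P0 : GL (Fin 3) F where
  val := !![0, 0, 1; 1, 0, 0; 0, 1, 0]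
  inv := !![0, 1, 0; 0, 0, 1; 1, 0, 0]
  val_inv := by ext i j; fin_cases i <;> fin_cases j <;> simp [Matrix.mul_apply, Fin.sum_univ_three]
  inv_val := by ext i j; fin_cases i <;> fin_cases j <;> simp [Matrix.mul_apply, Fin.sum_univ_three]

theorem det_P0 : Matrix.GeneralLinearGroup.det (P0 F) = 1 := by
  refine Units.ext ?_
  show Matrix.det (!![0, 0, 1; 1, 0, 0; 0, 1, 0] : Matrix (Fin 3) (Fin 3) F) = 1
  simp [Matrix.det_fin_three]

/-- The standard diagonal generator. -/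
def A0 (w : Fˣ) : GL (Fin 3) F := Dg ![1, w, w ^ 2]

theorem A0_P0 {w : Fˣ} (hw : w ^ 3 = 1) : A0 w * P0 F = Dg ![w, w, w] * (P0 F * A0 w) := by
  have hw' : (w : F) * (w : F) ^ 2 = 1 := by rw [← pow_succ', ← Units.val_pow_eq_pow_val, hw, Units.val_one]
  refine Units.ext (Matrix.ext fun i j => ?_)
  simp only [A0, Units.val_mul, Dg_val, P0]
  rw [Matrix.mul_apply, Matrix.diagonal_mul, Fin.sum_univ_three]
  simp only [Matrix.mul_diagonal]
  fin_cases i <;> fin_cases j <;> simp [hw', ← sq]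

/-- A matrix commuting with the standard generators is scalar. -/
theorem scalar_of_comm {w : Fˣ} (hw : w ^ 3 = 1) (hw1 : w ≠ 1) {y : GL (Fin 3) F}
    (hA : y * A0 w = A0 w * y) (hP : y * P0 F = P0 F * y) :
    ∃ c : F, (y : Matrix (Fin 3) (Fin 3) F) = c • 1 := by
  have hA' := congrArg (fun g : GL (Fin 3) F => (g : Matrix (Fin 3) (Fin 3) F)) hA
  have hP' := congrArg (fun g : GL (Fin 3) F => (g : Matrix (Fin 3) (Fin 3) F)) hP
  simp only [A0, Units.val_mul, Dg_val, P0] at hA' hP'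
  have h1 : (w : F) ≠ 1 := fun h => hw1 (Units.ext h)
  have h2 : (w : F) ^ 2 ≠ 1 := fun h => h1 (by
    have : (w : F) * (w : F) ^ 2 = 1 := by rw [← pow_succ', ← Units.val_pow_eq_pow_val, hw, Units.val_one]
    rwa [h, mul_one] at this)
  have h3 : (w : F) ^ 2 ≠ w := fun h => h1 (by
    have h4 : (w : F) * w = w * 1 := by rw [← sq, h, mul_one]
    exact mul_left_cancel₀ w.ne_zero h4)
  set M := (y : Matrix (Fin 3) (Fin 3) F)
  have hoff : ∀ i j, i ≠ j → M i j = 0 := by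
    intro i j hij
    have h := congrFun (congrFun hA' i) j
    rw [Matrix.mul_diagonal, Matrix.diagonal_mul] at h
    by_contra h0
    rw [mul_comm] at h
    have h4 := mul_right_cancel₀ h0 h
    revert hij h4
    fin_cases i <;> fin_cases j <;> simp [h1, h2, h3, Ne.symm h1, Ne.symm h2, Ne.symm h3]
  refine ⟨M 0 0, Matrix.ext fun i j => ?_⟩
  have e1 := congrFun (congrFun hP' 1) 0
  have e2 := congrFun (congrFun hP' 2) 1
  simp [Matrix.mul_apply, Fin.sum_univ_three] at e1 e2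
  fin_cases i <;> fin_cases j <;> simp [hoff, e1, e2]

/-- The data. -/
structure Heis (R : Subgroup (GL (Fin 3) F)) (q : ℕ) where
  /-- the root of unity -/
  w : Fˣ
  cube : w ^ 3 = 1
  ne_one : w ≠ 1
  /-- the frame -/
  g : GL (Fin 3) F
  mem : g ∈ Cfsg.GU 3 F q
  hA : g * A0 w * g⁻¹ ∈ R
  hP : g * P0 F * g⁻¹ ∈ R
  gen : R ≤ Subgroup.closure {g * A0 w * g⁻¹, g * P0 F * g⁻¹}
  sl : R ≤ Cfsg.Geo.specialLinear (Fin 3) F

theorem comm_of_card_dvd_nine {G : Type*} [Group G] (h : Nat.card G ∣ 9) (x y : G) : x * y = y * x := by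
  have h3 : Nat.card G ∈ Nat.divisors 9 := Nat.mem_divisors.2 ⟨h, by norm_num⟩
  rw [show Nat.divisors 9 = {1, 3, 9} by decide] at h3
  simp only [Finset.mem_insert, Finset.mem_singleton] at h3
  haveI : Fact (Nat.Prime 3) := ⟨Nat.prime_three⟩
  rcases h3 with h3 | h3 | h3
  · obtain ⟨hs, -⟩ := Nat.card_eq_one_iff_unique.1 h3
    exact Subsingleton.elim _ _
  · haveI := isCyclic_of_prime_card h3
    exact IsCyclic.commGroup.mul_comm x y
  · exact (IsPGroup.commutative_of_card_eq_prime_sq (p := 3) (by rw [h3]; norm_num)) x y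

/-- The standard frame. -/
theorem exists_heis (C : Conj F q) (hq3 : q % 3 = 2) (R : Subgroup (GL (Fin 3) F)) (hRU : R ≤ Cfsg.GU 3 F q)
    (hR : Nat.card R = 27) (hRe : Monoid.exponent R = 3) (hRna : ¬ IsMulCommutative R) :
    Nonempty (Heis R q) := by
  classical
  haveI : Fact (Nat.Prime 3) := ⟨Nat.prime_three⟩
  haveI : Finite R := Nat.finite_of_card_ne_zero (by omega)
  have hcube : ∀ x ∈ R, x ^ 3 = 1 := fun x hx => by
    have h := Monoid.pow_exponent_eq_one (⟨x, hx⟩ : R)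
    rw [hRe] at h
    exact congrArg Subtype.val h
  obtain ⟨a, b, hab⟩ : ∃ a b : R, a * b ≠ b * a := by
    by_contra h
    push Not at h
    exact hRna ⟨⟨h⟩⟩
  -- the commutator is central
  have hZ : b * a * b⁻¹ * a⁻¹ ∈ Subgroup.center R := by
    have hnt : Nontrivial R := Finite.one_lt_card_iff_nontrivial.1 (by omega)
    have hz := (IsPGroup.of_card (n := 3) (p := 3) (G := R) (by rw [hR]; norm_num)).center_nontrivial
    have h1 := Subgroup.card_eq_card_quotient_mul_card_subgroup (Subgroup.center R)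
    rw [hR] at h1
    have h2 : Nat.card (R ⧸ Subgroup.center R) ∣ 9 := by
      have h3 : Nat.card (R ⧸ Subgroup.center R) ∈ Nat.divisors 27 :=
        Nat.mem_divisors.2 ⟨⟨_, h1⟩, by norm_num⟩
      rw [show Nat.divisors 27 = {1, 3, 9, 27} by decide] at h3
      simp only [Finset.mem_insert, Finset.mem_singleton] at h3
      have h4 : 1 < Nat.card (Subgroup.center R) := Finite.one_lt_card_iff_nontrivial.2 hz
      rcases h3 with h3 | h3 | h3 | h3 <;> rw [h3] at h1 ⊢ <;> omega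
    have h3 := comm_of_card_dvd_nine h2 (QuotientGroup.mk b) (QuotientGroup.mk a)
    rw [← QuotientGroup.eq_one_iff]
    simp only [QuotientGroup.mk_mul, QuotientGroup.mk_inv, h3]
    group
  set A : GL (Fin 3) F := (a : GL (Fin 3) F) with hAd
  set B : GL (Fin 3) F := (b : GL (Fin 3) F) with hBd
  set c : GL (Fin 3) F := B * A * B⁻¹ * A⁻¹ with hcd
  have hcR : c ∈ R := (b * a * b⁻¹ * a⁻¹).2
  have hc1 : c ≠ 1 := fun h => hab (by
    have h1 : b * a * b⁻¹ * a⁻¹ = 1 := Subtype.ext h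
    rw [mul_inv_eq_one, mul_inv_eq_iff_eq_mul] at h1
    exact h1.symm)
  have hcA : A * c = c * A := congrArg Subtype.val (Subgroup.mem_center_iff.1 hZ a)
  have hcB : B * c = c * B := congrArg Subtype.val (Subgroup.mem_center_iff.1 hZ b)
  -- a root of unity
  have h3dvd : 3 ∣ q + 1 := by omega
  have hcardU : 3 ∣ Nat.card Fˣ := by
    rw [Nat.card_units, Nat.card_eq_fintype_card, C.card]
    exact dvd_trans h3dvd ⟨q - 1, by rw [← Nat.sq_sub_sq, one_pow]⟩
  obtain ⟨ω, hω⟩ := exists_prime_orderOf_dvd_card' 3 hcardU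
  have hω3 : (ω : F) ^ 3 = 1 := by rw [← Units.val_pow_eq_pow_val, ← hω, pow_orderOf_eq_one, Units.val_one]
  have hω1 : (ω : F) ≠ 1 := fun h => by
    have : ω = 1 := Units.ext h
    rw [this, orderOf_one] at hω; omega
  have hωs : (ω : F) ^ 2 + ω + 1 = 0 := by
    have : ((ω : F) - 1) * ((ω : F) ^ 2 + ω + 1) = 0 := by linear_combination hω3
    exact (mul_eq_zero.1 this).resolve_left (sub_ne_zero.2 hω1)
  have hc3 : (c : Matrix (Fin 3) (Fin 3) F) * ((c : Matrix (Fin 3) (Fin 3) F) * c) = 1 := by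
    rw [← Units.val_mul, ← Units.val_mul, ← sq, ← pow_succ', hcube c hcR, Units.val_one]
  obtain ⟨γ, hγ3, hγ1, w₀, hw₀, hw₀c⟩ : ∃ γ : Fˣ, γ ^ 3 = 1 ∧ γ ≠ 1 ∧ ∃ v : V3, v ≠ 0 ∧
      (c : Matrix (Fin 3) (Fin 3) F) *ᵥ v = (γ : F) • v := by
    obtain ⟨u, hu⟩ : ∃ u : V3, (c : Matrix (Fin 3) (Fin 3) F) *ᵥ u ≠ u := by
      by_contra h
      push Not at h
      exact hc1 (Units.ext (Matrix.ext_iff_mulVec.2 fun v => by rw [h, Units.val_one, Matrix.one_mulVec]))
    let M := (c : Matrix (Fin 3) (Fin 3) F)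
    let v := M *ᵥ u - u
    have hv : M *ᵥ (M *ᵥ v) + M *ᵥ v + v = 0 := by
      simp only [v, Matrix.mulVec_sub]
      rw [show M *ᵥ (M *ᵥ (M *ᵥ u)) = u by rw [Matrix.mulVec_mulVec, Matrix.mulVec_mulVec, mul_assoc, hc3, Matrix.one_mulVec]]
      abel
    have hω3u : ω ^ 3 = 1 := by rw [← hω, pow_orderOf_eq_one]
    have hω1u : ω ≠ 1 := fun h => hω1 (by rw [h, Units.val_one])
    by_cases h0 : M *ᵥ v - (ω : F) • v = 0
    · exact ⟨ω, hω3u, hω1u, v, sub_ne_zero.2 hu, sub_eq_zero.1 h0⟩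
    · refine ⟨ω ^ 2, by rw [← pow_mul, mul_comm, pow_mul, hω3u, one_pow], fun h => hω1u ?_,
        _, h0, ?_⟩
      · calc ω = ω ^ 2 * ω ^ 2 := by rw [← pow_add, pow_succ, hω3u, one_mul]
          _ = 1 := by rw [h, one_mul]
      · rw [Units.val_pow_eq_pow_val, Matrix.mulVec_sub, Matrix.mulVec_smul,
          show M *ᵥ (M *ᵥ v) = - (M *ᵥ v) - v by rw [eq_sub_iff_add_eq, eq_neg_iff_add_eq_zero]; rw [← hv]; abel]
        match_scalars <;> first
          | linear_combination (0 : F) * hω3 | linear_combination -hωs | linear_combination hωs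
          | linear_combination hω3 | linear_combination -hω3
  -- it is scalar
  have hscal : (c : Matrix (Fin 3) (Fin 3) F) = (γ : F) • 1 := by
    let W : Submodule F V3 := Module.End.eigenspace (Matrix.toLin' (c : Matrix (Fin 3) (Fin 3) F)) (γ : F)
    have hWm : ∀ v, v ∈ W ↔ (c : Matrix (Fin 3) (Fin 3) F) *ᵥ v = (γ : F) • v := fun v => by
      rw [Module.End.mem_eigenspace_iff, Matrix.toLin'_apply]
    have hinv : ∀ g : GL (Fin 3) F, g * c = c * g → ∀ v ∈ W, (g : Matrix (Fin 3) (Fin 3) F) *ᵥ v ∈ W := by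
      intro g hg v hv
      rw [hWm] at hv ⊢
      rw [Matrix.mulVec_mulVec, ← Units.val_mul, ← hg, Units.val_mul, ← Matrix.mulVec_mulVec, hv, Matrix.mulVec_smul]
    let fa : W →ₗ[F] W := (Matrix.toLin' (A : Matrix (Fin 3) (Fin 3) F)).restrict
      (fun v hv => by rw [Matrix.toLin'_apply]; exact hinv A hcA v hv)
    let fb : W →ₗ[F] W := (Matrix.toLin' (B : Matrix (Fin 3) (Fin 3) F)).restrict
      (fun v hv => by rw [Matrix.toLin'_apply]; exact hinv B hcB v hv)
    have hrel : fb.comp fa = (γ : F) • fa.comp fb := LinearMap.ext fun v => Subtype.ext (by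
      show (B : Matrix (Fin 3) (Fin 3) F) *ᵥ ((A : Matrix (Fin 3) (Fin 3) F) *ᵥ (v : V3)) =
        (γ : F) • ((A : Matrix (Fin 3) (Fin 3) F) *ᵥ ((B : Matrix (Fin 3) (Fin 3) F) *ᵥ (v : V3)))
      have hin : (A : Matrix (Fin 3) (Fin 3) F) *ᵥ ((B : Matrix (Fin 3) (Fin 3) F) *ᵥ (v : V3)) ∈ W :=
        hinv A hcA _ (hinv B hcB _ v.2)
      rw [← (hWm _).1 hin, Matrix.mulVec_mulVec, Matrix.mulVec_mulVec, Matrix.mulVec_mulVec, ← Units.val_mul,
        ← Units.val_mul, ← Units.val_mul, hcd]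
      congr 2
      group)
    have hinj : ∀ g : GL (Fin 3) F, Function.Injective fun v : V3 => (g : Matrix (Fin 3) (Fin 3) F) *ᵥ v :=
      fun g => Matrix.mulVec_injective_iff_isUnit.2 g.isUnit
    have hdab : LinearMap.det (fa.comp fb) ≠ 0 := by
      intro h
      have hi : Function.Injective (fa.comp fb) := fun u v huv =>
        Subtype.ext (hinj B (hinj A (congrArg Subtype.val huv)))
      exact (LinearMap.det_eq_zero_iff_ker_ne_bot.1 h) (LinearMap.ker_eq_bot.2 hi)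
    have h1 := congrArg LinearMap.det hrel
    rw [LinearMap.det_smul, show fb.comp fa = fb * fa from rfl, show fa.comp fb = fa * fb from rfl, map_mul, map_mul,
      mul_comm (LinearMap.det fb)] at h1
    rw [show fa.comp fb = fa * fb from rfl, map_mul] at hdab
    have h2 : γ ^ finrank F W = 1 := Units.ext (by
      rw [Units.val_pow_eq_pow_val, Units.val_one]
      exact (mul_right_cancel₀ hdab (h1.symm.trans (one_mul _).symm)))
    have h3 : 3 ∣ finrank F W := by
      have h := orderOf_dvd_of_pow_eq_one h2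
      rwa [orderOf_eq_prime hγ3 hγ1] at h
    have h4 : finrank F W ≠ 0 := fun h => hw₀ (by
      have := Submodule.finrank_eq_zero.1 h
      simpa [this] using (hWm w₀).2 hw₀c)
    have h5 := W.finrank_le
    have hV : finrank F V3 = 3 := by simp
    have hWtop : W = ⊤ := Submodule.eq_top_of_finrank_eq (by omega)
    refine Matrix.ext_iff_mulVec.2 fun v => ?_
    rw [(hWm v).1 (hWtop ▸ Submodule.mem_top), Matrix.smul_mulVec, Matrix.one_mulVec]
  set MA := (A : Matrix (Fin 3) (Fin 3) F)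
  set MB := (B : Matrix (Fin 3) (Fin 3) F)
  have hBA : ∀ v, MB *ᵥ (MA *ᵥ v) = (γ : F) • (MA *ᵥ (MB *ᵥ v)) := by
    intro v
    have h : B * A = c * (A * B) := by rw [hcd]; group
    rw [Matrix.mulVec_mulVec, ← Units.val_mul, h, Units.val_mul, hscal, Matrix.smul_mul, one_mul, Units.val_mul,
      Matrix.smul_mulVec, Matrix.mulVec_mulVec]
  have hA3 : ∀ v, MA *ᵥ (MA *ᵥ (MA *ᵥ v)) = v := fun v => by
    rw [Matrix.mulVec_mulVec, Matrix.mulVec_mulVec, ← Units.val_mul, ← Units.val_mul, ← sq, ← pow_succ,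
      hcube A a.2, Units.val_one, Matrix.one_mulVec]
  have hB3 : ∀ v, MB *ᵥ (MB *ᵥ (MB *ᵥ v)) = v := fun v => by
    rw [Matrix.mulVec_mulVec, Matrix.mulVec_mulVec, ← Units.val_mul, ← Units.val_mul, ← sq, ← pow_succ,
      hcube B b.2, Units.val_one, Matrix.one_mulVec]
  have hγ : (γ : F) ^ 3 = 1 := by rw [← Units.val_pow_eq_pow_val, hγ3, Units.val_one]
  have hγ1' : (γ : F) ≠ 1 := fun h => hγ1 (Units.ext h)
  have hγs : (γ : F) ^ 2 + γ + 1 = 0 := by
    have : ((γ : F) - 1) * ((γ : F) ^ 2 + γ + 1) = 0 := by linear_combination hγ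
    exact (mul_eq_zero.1 this).resolve_left (sub_ne_zero.2 hγ1')
  have hshift : ∀ (l : F) (v : V3), MA *ᵥ v = l • v → MA *ᵥ (MB *ᵥ v) = ((γ : F) ^ 2 * l) • (MB *ᵥ v) := by
    intro l v h
    have h1 := hBA v
    rw [h, Matrix.mulVec_smul] at h1
    rw [← smul_smul, h1, smul_smul, ← pow_succ, hγ, one_smul]
  -- a fixed vector
  obtain ⟨v₁, hv₁, hv₁A⟩ : ∃ v : V3, v ≠ 0 ∧ MA *ᵥ v = v := by
    have hinjB : ∀ v : V3, v ≠ 0 → MB *ᵥ v ≠ 0 := fun v hv h => hv (by
      have := hB3 v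
      rw [h, Matrix.mulVec_zero, Matrix.mulVec_zero] at this
      exact this.symm)
    let u : V3 := Pi.single 0 1
    by_cases h0 : u + MA *ᵥ u + MA *ᵥ (MA *ᵥ u) = 0
    · by_cases h1 : u + (γ : F) ^ 2 • (MA *ᵥ u) + (γ : F) • (MA *ᵥ (MA *ᵥ u)) = 0
      · -- the eigenvalue `γ ^ 2`
        let s := u + (γ : F) • (MA *ᵥ u) + (γ : F) ^ 2 • (MA *ᵥ (MA *ᵥ u))
        have hs : s ≠ 0 := by
          intro h2
          have h3 : (3 : F) • u = 0 := by
            have e : (3 : F) • u = (u + MA *ᵥ u + MA *ᵥ (MA *ᵥ u)) +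
                (u + (γ : F) ^ 2 • (MA *ᵥ u) + (γ : F) • (MA *ᵥ (MA *ᵥ u))) + s := by
              simp only [s]
              match_scalars
              · ring
              · linear_combination -hγs
              · linear_combination -hγs
            rw [e, h0, h1, h2, add_zero, add_zero]
          have h4 : (3 : F) = 0 := by simpa [u] using congrFun h3 0
          exact hγ1' (by
            have h5 : ((γ : F) - 1) ^ 3 = 0 := by linear_combination hγ + ((γ : F) - (γ : F) ^ 2) * h4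
            exact sub_eq_zero.1 (pow_eq_zero_iff three_ne_zero |>.1 h5))
        have hsA : MA *ᵥ s = (γ : F) ^ 2 • s := by
          simp only [s, Matrix.mulVec_add, Matrix.mulVec_smul, hA3]
          match_scalars <;> first
            | linear_combination (0 : F) * hγ | linear_combination -hγ | linear_combination -(γ : F) * hγ
        refine ⟨MB *ᵥ (MB *ᵥ s), hinjB _ (hinjB _ hs), ?_⟩
        rw [hshift _ _ (hshift _ _ hsA), show (γ : F) ^ 2 * ((γ : F) ^ 2 * (γ : F) ^ 2) = 1 by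
          linear_combination ((γ : F) ^ 3 + 1) * hγ, one_smul]
      · refine ⟨MB *ᵥ (u + (γ : F) ^ 2 • (MA *ᵥ u) + (γ : F) • (MA *ᵥ (MA *ᵥ u))), hinjB _ h1, ?_⟩
        have hsA : MA *ᵥ (u + (γ : F) ^ 2 • (MA *ᵥ u) + (γ : F) • (MA *ᵥ (MA *ᵥ u))) =
            (γ : F) • (u + (γ : F) ^ 2 • (MA *ᵥ u) + (γ : F) • (MA *ᵥ (MA *ᵥ u))) := by
          simp only [Matrix.mulVec_add, Matrix.mulVec_smul, hA3]
          match_scalars <;> first
            | linear_combination (0 : F) * hγ | linear_combination -hγ | linear_combination -(γ : F) * hγ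
        rw [hshift _ _ hsA, ← pow_succ, hγ, one_smul]
    · refine ⟨_, h0, ?_⟩
      simp only [Matrix.mulVec_add, hA3]
      abel
  -- the frame
  let W := B * B
  let MW := (W : Matrix (Fin 3) (Fin 3) F)
  have hWA : ∀ (l : F) (v : V3), MA *ᵥ v = l • v → MA *ᵥ (MW *ᵥ v) = ((γ : F) * l) • (MW *ᵥ v) := by
    intro l v h
    have e : MW *ᵥ v = MB *ᵥ (MB *ᵥ v) := by
      show ((B * B : GL (Fin 3) F) : Matrix (Fin 3) (Fin 3) F) *ᵥ v = _
      rw [Units.val_mul, ← Matrix.mulVec_mulVec]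
    rw [e, hshift _ _ (hshift _ _ h), show (γ : F) ^ 2 * ((γ : F) ^ 2 * l) = (γ : F) * l by
      linear_combination ((γ : F) * l) * hγ]
  let d : Fin 3 → Fˣ := ![1, γ, γ ^ 2]
  have hdinj : Function.Injective d := by
    intro i j h
    have h2 : γ ^ 2 ≠ 1 := fun h => hγ1 (by rw [← hγ3, pow_succ γ 2, h, one_mul])
    have h3 : γ ^ 2 ≠ γ := fun h => hγ1 (by rwa [sq, mul_eq_left] at h)
    revert h
    fin_cases i <;> fin_cases j <;>
      simp [d, h2, h3, Ne.symm h2, Ne.symm h3, hγ1, Ne.symm hγ1]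
  have hnorm : ∀ t : Fˣ, t ^ 3 = 1 → (t : F) * C.σ t = 1 := fun t ht => by
    rw [C.pow, ← pow_succ', ← Units.val_pow_eq_pow_val]
    obtain ⟨l, hl⟩ := h3dvd
    rw [hl, pow_mul, ht, one_pow, Units.val_one]
  have hdn : ∀ i, (d i : F) * C.σ (d i) = 1 := fun i => hnorm _ (by
    fin_cases i <;> simp [d, hγ3, ← pow_mul, show 2 * 3 = 3 * 2 from rfl, pow_mul γ 3 2])
  have hkey : ∀ v : V3, MA *ᵥ v = v → ∀ i : Fin 3, MA *ᵥ ((W ^ (i : ℕ) : GL (Fin 3) F) : Matrix (Fin 3) (Fin 3) F) *ᵥ v =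
      (d i : F) • (((W ^ (i : ℕ) : GL (Fin 3) F) : Matrix (Fin 3) (Fin 3) F) *ᵥ v) := by
    intro v hv i
    have h1 : MA *ᵥ (MW *ᵥ v) = (γ : F) • (MW *ᵥ v) := by
      have := hWA 1 v (by rw [hv, one_smul])
      rwa [mul_one] at this
    fin_cases i
    · simp [d, hv]
    · simpa [d] using h1
    · have h2 := hWA _ _ h1
      simp [d, sq, ← Matrix.mulVec_mulVec]
      simpa [MW] using h2
  have hWU : W ∈ Cfsg.GU 3 F q := mul_mem (hRU b.2) (hRU b.2)
  let e₀ : Fin 3 → V3 := fun i => ((W ^ (i : ℕ) : GL (Fin 3) F) : Matrix (Fin 3) (Fin 3) F) *ᵥ v₁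
  have he₀ : ∀ i, hh (e₀ i) (e₀ i) = hh v₁ v₁ := fun i => mem_GU_iff.1 (Subgroup.pow_mem _ hWU _) _ _
  have horth₀ : ∀ i j, i ≠ j → hh (e₀ i) (e₀ j) = 0 := fun i j hij =>
    eig_orth C (hRU a.2) (hdn j) (fun h => hij (hdinj (Units.ext h))) (hkey v₁ hv₁A i) (hkey v₁ hv₁A j)
  have hne : ∀ i, e₀ i ≠ 0 := fun i h => hv₁ (by
    apply Matrix.mulVec_injective_iff_isUnit.2 (W ^ (i : ℕ)).isUnit
    show e₀ i = _
    rw [h, Matrix.mulVec_zero])
  have hh₁ : hh v₁ v₁ ≠ 0 := by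
    intro h0
    have hli : LinearIndependent F e₀ := by
      refine Module.End.eigenvectors_linearIndependent' (Matrix.toLin' MA)
        (fun i => (d i : F)) (fun i j h => hdinj (Units.ext h)) e₀ fun i => ⟨?_, hne i⟩
      rw [Module.End.mem_eigenspace_iff, Matrix.toLin'_apply]
      exact hkey v₁ hv₁A i
    refine hne 0 (ext_form C fun u => ?_)
    let bs := basisOfLinearIndependentOfCardEqFinrank hli (by simp)
    have hu := bs.sum_repr u
    simp only [bs, coe_basisOfLinearIndependentOfCardEqFinrank] at hu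
    rw [form_zero_left, ← hu, Fin.sum_univ_three, form_add_right C, form_add_right C,
      form_smul_right C, form_smul_right C, form_smul_right C]
    simp [he₀, h0, horth₀]
  obtain ⟨t, ht⟩ := exists_scale C hh₁
  obtain ⟨g, hg, hge⟩ := exists_cols C (fun i => t • e₀ i) fun i j => by
    split_ifs with h
    · subst h
      rw [form_smul_left, form_smul_right C, he₀, ← form_smul_right C, ← form_smul_left]
      exact ht
    · rw [form_smul_left, form_smul_right C, horth₀ i j h, mul_zero, mul_zero]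
  have hgA : A * g = g * A0 γ := mul_eq_mul_Dg fun i => by
    rw [hge, Matrix.mulVec_smul]
    show t • (MA *ᵥ e₀ i) = _
    rw [hkey v₁ hv₁A i, smul_comm]
  have hW3 : W ^ 3 = 1 := hcube W (mul_mem b.2 b.2)
  have hgP : W * g = g * P0 F := by
    refine Units.ext (Matrix.ext_of_mulVec_single fun i => ?_)
    rw [Units.val_mul W g, Units.val_mul g (P0 F), ← Matrix.mulVec_mulVec, ← Matrix.mulVec_mulVec, hge]
    have hP : ((P0 F : GL (Fin 3) F) : Matrix (Fin 3) (Fin 3) F) *ᵥ Pi.single i 1 = Pi.single (i + 1) 1 := by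
      rw [Matrix.mulVec_single_one]
      funext r
      fin_cases i <;> fin_cases r <;> simp [P0]
    rw [hP, hge, Matrix.mulVec_smul]
    congr 1
    simp only [e₀]
    rw [Matrix.mulVec_mulVec, ← Units.val_mul, ← pow_succ']
    fin_cases i
    · rfl
    · rfl
    · show ((W ^ 3 : GL (Fin 3) F) : Matrix (Fin 3) (Fin 3) F) *ᵥ v₁ = _
      rw [hW3]; simp
  have hA' : g * A0 γ * g⁻¹ = A := by rw [← hgA, mul_inv_cancel_right]
  have hP' : g * P0 F * g⁻¹ = W := by rw [← hgP, mul_inv_cancel_right]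
  have hAR : g * A0 γ * g⁻¹ ∈ R := hA' ▸ a.2
  have hPR : g * P0 F * g⁻¹ ∈ R := hP' ▸ mul_mem b.2 b.2
  have hK : Subgroup.closure {g * A0 γ * g⁻¹, g * P0 F * g⁻¹} ≤ R := (Subgroup.closure_le _).2 (by
    rintro x (rfl | rfl)
    · exact hAR
    · exact hPR)
  have hKR : Subgroup.closure {g * A0 γ * g⁻¹, g * P0 F * g⁻¹} = R := by
    refine Subgroup.eq_of_le_of_card_ge hK ?_
    by_contra hlt
    have hd := Subgroup.card_dvd_of_le hK
    rw [hR] at hd hlt
    have h3 : Nat.card (Subgroup.closure {g * A0 γ * g⁻¹, g * P0 F * g⁻¹}) ∈ Nat.divisors 27 :=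
      Nat.mem_divisors.2 ⟨hd, by norm_num⟩
    rw [show Nat.divisors 27 = {1, 3, 9, 27} by decide] at h3
    simp only [Finset.mem_insert, Finset.mem_singleton] at h3
    have hd9 : Nat.card (Subgroup.closure {g * A0 γ * g⁻¹, g * P0 F * g⁻¹}) ∣ 9 := by
      rcases h3 with h3 | h3 | h3 | h3 <;> rw [h3] at hlt ⊢ <;> omega
    have h4 := congrArg Subtype.val (comm_of_card_dvd_nine hd9
      ⟨_, Subgroup.subset_closure (Set.mem_insert _ _)⟩
      ⟨_, Subgroup.subset_closure (Set.mem_insert_of_mem _ rfl)⟩)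
    change (g * A0 γ * g⁻¹) * (g * P0 F * g⁻¹) = (g * P0 F * g⁻¹) * (g * A0 γ * g⁻¹) at h4
    have h5 : A0 γ * P0 F = P0 F * A0 γ := by
      have := congrArg (fun x => g⁻¹ * x * g) h4
      simpa [mul_assoc] using this
    have h6 := h5
    rw [A0_P0 hγ3, mul_eq_right] at h6
    have h7 := congrArg (fun x : GL (Fin 3) F => (x : Matrix (Fin 3) (Fin 3) F) 0 0) h6
    simp [Dg_val, hγ1'] at h7
  refine ⟨⟨γ, hγ3, hγ1, g, hg, hAR, hPR, hKR.ge, ?_⟩⟩
  rw [← hKR, Subgroup.closure_le]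
  rintro x (rfl | rfl) <;>
    simp only [SetLike.mem_coe, Cfsg.Geo.specialLinear, MonoidHom.mem_ker, map_mul, map_inv]
  · rw [mul_inv_cancel_comm, A0, det_Dg]
    show 1 * γ * γ ^ 2 = 1
    rw [one_mul, ← pow_succ', hγ3]
  · rw [mul_inv_cancel_comm, det_P0]

end CfsgLib.HeisU3
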