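import Cfsg.Agent.HeisU3.Frame

/-!
Elements of prime order of `SU_3` conjugate into the normaliser of an extraspecial group of order 27.
-/

set_option autoImplicit false

namespace CfsgLib.HeisU3

open Matrix Module CfsgLib.UGeom

variable {F : Type*} [Field F] [Fintype F] {q : ℕ} {R : Subgroup (GL (Fin 3) F)} (H : Heis R q)

/-- Normalising through the standard generators. -/
theorem conj_mem (hR : Nat.card R = 27) {y U V : GL (Fin 3) F} (hU : H.g * U * H.g⁻¹ ∈ R) (hV : H.g * V * H.g⁻¹ ∈ R)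
    (hyU : y * A0 H.w = U * y) (hyV : y * P0 F = V * y) :
    H.g * y * H.g⁻¹ ∈ Cfsg.Geo.subgroupNormalizer R := by
  haveI : Finite R := Nat.finite_of_card_ne_zero (by omega)
  set n := H.g * y * H.g⁻¹
  have h1 : ∀ a B : GL (Fin 3) F, y * a = B * y → n * (H.g * a * H.g⁻¹) * n⁻¹ = H.g * B * H.g⁻¹ := by
    intro a B h
    have hB : B = y * a * y⁻¹ := by rw [h, mul_inv_cancel_right]
    simp only [n, hB]
    group
  have hsub : ∀ r ∈ R, n * r * n⁻¹ ∈ R := by
    intro r hr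
    have hle : R ≤ R.comap (MulAut.conj n).toMonoidHom := H.gen.trans ((Subgroup.closure_le _).2 (by
      rintro x (rfl | rfl)
      · show n * _ * n⁻¹ ∈ R
        rw [h1 _ _ hyU]; exact hU
      · show n * _ * n⁻¹ ∈ R
        rw [h1 _ _ hyV]; exact hV))
    exact hle hr
  show n ∈ Subgroup.normalizer (R : Set (GL (Fin 3) F))
  refine Subgroup.mem_normalizer_iff.2 fun r => ⟨fun hr => hsub r hr, fun hr => ?_⟩
  let f : R → R := fun t => ⟨n * t * n⁻¹, hsub t t.2⟩
  have hf : Function.Injective f := fun s t h => by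
    have := congrArg Subtype.val h
    exact Subtype.ext (mul_left_cancel (mul_right_cancel this))
  obtain ⟨⟨t, ht⟩, hft⟩ := (Finite.injective_iff_surjective.1 hf) ⟨n * r * n⁻¹, hr⟩
  have := congrArg Subtype.val hft
  rwa [← mul_left_cancel (mul_right_cancel (this : n * t * n⁻¹ = n * r * n⁻¹))]

variable (C : Conj F q)
include C

omit H

/-- Conjugating along common eigenframes, with determinant one. -/
theorem transport {x y k k' g : GL (Fin 3) F} {d : Fin 3 → Fˣ}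
    (hk : k ∈ Cfsg.GU 3 F q) (hk' : k' ∈ Cfsg.GU 3 F q) (hg : g ∈ Cfsg.GU 3 F q)
    (hxk : x * k = k * Dg d) (hyk : y * k' = k' * Dg d) :
    ∃ G ∈ Cfsg.GU 3 F q ⊓ Cfsg.Geo.specialLinear (Fin 3) F, G⁻¹ * x * G = g * y * g⁻¹ := by
  have hmem : k * k'⁻¹ * g⁻¹ ∈ Cfsg.GU 3 F q := mul_mem (mul_mem hk (inv_mem hk')) (inv_mem hg)
  set δ : Fˣ := (Matrix.GeneralLinearGroup.det (k * k'⁻¹ * g⁻¹))⁻¹ with hδd
  have hδ : δ ^ (q + 1) = 1 := by rw [hδd, inv_pow, det_pow C ⟨_, hmem⟩, inv_one]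
  have hδn : (δ : F) * C.σ δ = 1 := by
    rw [C.pow, ← pow_succ', ← Units.val_pow_eq_pow_val, hδ, Units.val_one]
  set E : GL (Fin 3) F := Dg ![δ, 1, 1] with hEd
  have hE : E ∈ Cfsg.GU 3 F q := Dg_mem C (fun i => by fin_cases i <;> simp [hδn])
  refine ⟨k * E * k'⁻¹ * g⁻¹, Subgroup.mem_inf.2 ⟨mul_mem (mul_mem (mul_mem hk hE) (inv_mem hk')) (inv_mem hg), ?_⟩, ?_⟩
  · show Matrix.GeneralLinearGroup.det _ = 1
    have hdE : Matrix.GeneralLinearGroup.det E = δ := by rw [hEd, det_Dg]; simp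
    have h1 : δ⁻¹ = Matrix.GeneralLinearGroup.det (k * k'⁻¹ * g⁻¹) := inv_inv _
    rw [map_mul, map_mul, map_mul, hdE, mul_comm (Matrix.GeneralLinearGroup.det k) δ, mul_assoc, mul_assoc,
      ← map_mul, ← map_mul, ← mul_assoc, ← h1, mul_inv_cancel]
  · have hx : x = k * Dg d * k⁻¹ := by rw [← hxk, mul_inv_cancel_right]
    have hy : y = k' * Dg d * k'⁻¹ := by rw [← hyk, mul_inv_cancel_right]
    have hc : E⁻¹ * Dg d * E = Dg d := by rw [mul_assoc, ← Dg_comm, inv_mul_cancel_left]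
    calc (k * E * k'⁻¹ * g⁻¹)⁻¹ * x * (k * E * k'⁻¹ * g⁻¹) = g * k' * (E⁻¹ * Dg d * E) * k'⁻¹ * g⁻¹ := by
          rw [hx]; group
      _ = g * y * g⁻¹ := by rw [hc, hy]; group

theorem norm_of_pow {t : Fˣ} (hq3 : q % 3 = 2) (ht : t ^ 3 = 1) : (t : F) * C.σ t = 1 := by
  rw [C.pow, ← pow_succ', ← Units.val_pow_eq_pow_val]
  obtain ⟨l, hl⟩ : 3 ∣ q + 1 := by omega
  rw [hl, pow_mul, ht, one_pow, Units.val_one]

/-- Cube roots of cube roots of unity have norm one. -/
theorem norm_of_cube {a : Fˣ} (hq3 : q % 3 = 2) (ha : (a ^ 3) ^ 3 = 1) : (a : F) * C.σ a = 1 := by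
  have h1 := norm_of_pow C hq3 ha
  rw [Units.val_pow_eq_pow_val, map_pow, ← mul_pow] at h1
  have hfix : C.σ ((a : F) * C.σ a) = (a : F) * C.σ a := by rw [map_mul, C.invol, mul_comm]
  have h2 : ((a : F) * C.σ a) ≠ 0 := mul_ne_zero a.ne_zero ((map_ne_zero C.σ).2 a.ne_zero)
  have hq : ((a : F) * C.σ a) ^ 2 = (a : F) * C.σ a := by
    have h4 : ((a : F) * C.σ a) ^ q = ((a : F) * C.σ a) ^ (3 * (q / 3) + 2) := congrArg _ (by omega)
    rw [pow_add, pow_mul, h1, one_pow, one_mul, ← C.pow, hfix] at h4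
    exact h4.symm
  exact mul_left_cancel₀ h2 (by rw [← sq, hq, mul_one])

omit C in
theorem det_of_eq {x k D : GL (Fin 3) F} (hx : x * k = k * D)
    (hx1 : Matrix.GeneralLinearGroup.det x = 1) : Matrix.GeneralLinearGroup.det D = 1 := by
  have h := congrArg (Matrix.GeneralLinearGroup.det : GL (Fin 3) F →* Fˣ) hx
  rw [map_mul, map_mul, hx1, one_mul] at h
  exact mul_eq_left.1 h.symm

/-- Involutions, up to scalars. -/
theorem inv_diag (h2 : (2 : F) ≠ 0) {x : GL (Fin 3) F} (hx : x ∈ Cfsg.GU 3 F q)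
    (hx1 : Matrix.GeneralLinearGroup.det x = 1) {s : Fˣ} (hs : s ^ 3 = 1) (hsn : (s : F) * C.σ s = 1)
    (hsq : (x : Matrix (Fin 3) (Fin 3) F) * x = ((s : F) * s) • 1)
    (hns : ∀ z : F, (x : Matrix (Fin 3) (Fin 3) F) ≠ z • 1) :
    ∃ k ∈ Cfsg.GU 3 F q, x * k = k * Dg ![s, -s, -s] := by
  have hne : -s ≠ s := fun h => by
    have h1 := congrArg Units.val h
    rw [Units.val_neg] at h1
    exact mul_ne_zero h2 s.ne_zero (by linear_combination -h1)
  have hn : ((-s : Fˣ) : F) * C.σ ((-s : Fˣ) : F) = 1 := by rw [Units.val_neg, map_neg, neg_mul_neg, hsn]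
  have hpoly : ((x : Matrix (Fin 3) (Fin 3) F) - ((-s : Fˣ) : F) • 1) * ((x : Matrix (Fin 3) (Fin 3) F) - (s : F) • 1) = 0 := by
    rw [Units.val_neg]
    simp only [sub_mul, mul_sub, Matrix.smul_mul, Matrix.mul_smul, one_mul, mul_one, hsq, neg_smul, neg_mul, smul_neg]
    module
  rcases diag_two C hx hn hsn hne hpoly hns with h | ⟨k, hk, hxk⟩
  · exact h
  · exfalso
    have h := det_of_eq hxk hx1
    rw [det_Dg] at h
    simp only [Matrix.cons_val_zero, Matrix.cons_val_one, Matrix.cons_val] at h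
    have h' := congrArg Units.val h
    have hs' : (s : F) ^ 3 = 1 := by rw [← Units.val_pow_eq_pow_val, hs, Units.val_one]
    push_cast at h'
    have e : (2 : F) = 0 := by
      have e1 : -((s : F) ^ 3) = 1 := by rw [← h']; ring
      rw [hs'] at e1
      linear_combination -e1
    exact h2 e

omit C in
/-- Cubes that are scalar have their eigenvalues in the field. -/
theorem exists_root {x : GL (Fin 3) F} (hx1 : Matrix.GeneralLinearGroup.det x = 1) {z : F}
    (hx : ((x ^ 3 : GL (Fin 3) F) : Matrix (Fin 3) (Fin 3) F) = z • 1) : ∃ a : F, a ^ 3 = z := by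
  by_contra h
  push Not at h
  have hirr := X_pow_sub_C_irreducible_of_prime Nat.prime_three h
  have hmonic := Polynomial.monic_X_pow_sub_C z (n := 3) (by norm_num)
  set M := (x : Matrix (Fin 3) (Fin 3) F)
  have hev : Polynomial.aeval M (Polynomial.X ^ 3 - Polynomial.C z) = 0 := by
    rw [map_sub, map_pow, Polynomial.aeval_X, Polynomial.aeval_C, Algebra.algebraMap_eq_smul_one,
      ← Units.val_pow_eq_pow_val, hx, sub_self]
  have hmin : Polynomial.X ^ 3 - Polynomial.C z = minpoly F M := minpoly.eq_of_irreducible_of_monic hirr hev hmonic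
  have hch : M.charpoly = Polynomial.X ^ 3 - Polynomial.C z := by
    refine Polynomial.eq_of_monic_of_dvd_of_natDegree_le hmonic M.charpoly_monic ?_ ?_
    · rw [hmin]; exact Matrix.minpoly_dvd_charpoly M
    · rw [Matrix.charpoly_natDegree_eq_dim, Polynomial.natDegree_X_pow_sub_C]; simp
  have hd : M.det = 1 := by
    rw [← Matrix.GeneralLinearGroup.val_det_apply, hx1, Units.val_one]
  rw [Matrix.det_eq_sign_charpoly_coeff, hch, Polynomial.coeff_sub, Polynomial.coeff_X_pow, Polynomial.coeff_C_zero,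
    Fintype.card_fin] at hd
  refine h 1 ?_
  simp at hd
  linear_combination (norm := ring_nf) -hd

include H

/-- Elements with scalar cube. -/
theorem three (hq3 : q % 3 = 2) (hR : Nat.card R = 27) {x : GL (Fin 3) F} (hx : x ∈ Cfsg.GU 3 F q)
    (hns : ∀ z : F, (x : Matrix (Fin 3) (Fin 3) F) ≠ z • 1) {a : Fˣ} (ha : (a ^ 3) ^ 3 = 1)
    (hx3 : ((x ^ 3 : GL (Fin 3) F) : Matrix (Fin 3) (Fin 3) F) = ((a : F) ^ 3) • 1) :
    ∃ G ∈ Cfsg.GU 3 F q ⊓ Cfsg.Geo.specialLinear (Fin 3) F, G⁻¹ * x * G ∈ Cfsg.Geo.subgroupNormalizer R := by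
  set w := H.w with hwd
  have hw : (w : F) ^ 3 = 1 := by rw [← Units.val_pow_eq_pow_val, hwd, H.cube, Units.val_one]
  have hw1 : (w : F) ≠ 1 := fun h => H.ne_one (Units.ext h)
  have hws : (w : F) ^ 2 + w + 1 = 0 := by
    have : ((w : F) - 1) * ((w : F) ^ 2 + w + 1) = 0 := by linear_combination hw
    exact (mul_eq_zero.1 this).resolve_left (sub_ne_zero.2 hw1)
  have hpow : ∀ j : ℕ, (a * w ^ j : Fˣ) ^ 3 = a ^ 3 := fun j => by
    rw [mul_pow, ← pow_mul, mul_comm, mul_comm j 3, pow_mul, H.cube, one_pow, one_mul]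
  have hnorm : ∀ j : ℕ, ((a * w ^ j : Fˣ) : F) * C.σ ((a * w ^ j : Fˣ) : F) = 1 := fun j =>
    norm_of_cube C hq3 (by rw [hpow, ha])
  have hsc : ∀ j : ℕ, H.g * Dg ![w ^ j, w ^ j, w ^ j] * H.g⁻¹ ∈ R := fun j => by
    have h1 : H.g * Dg ![w, w, w] * H.g⁻¹ =
        (H.g * A0 w * H.g⁻¹) * (H.g * P0 F * H.g⁻¹) * ((H.g * P0 F * H.g⁻¹) * (H.g * A0 w * H.g⁻¹))⁻¹ := by
      have h2 := A0_P0 (F := F) H.cube
      rw [← hwd] at h2
      rw [eq_mul_inv_iff_mul_eq]
      calc _ = H.g * (Dg ![w, w, w] * (P0 F * A0 w)) * H.g⁻¹ := by group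
        _ = H.g * (A0 w * P0 F) * H.g⁻¹ := by rw [h2]
        _ = _ := by group
    have hp : (![w, w, w] : Fin 3 → Fˣ) ^ j = ![w ^ j, w ^ j, w ^ j] := by
      funext i; fin_cases i <;> rfl
    rw [← hp, ← Dg_pow, ← conj_pow, h1]
    exact R.pow_mem (R.mul_mem (R.mul_mem H.hA H.hP) (R.inv_mem (R.mul_mem H.hP H.hA))) j
  by_cases hall : ∀ j : Fin 3, ∃ v : Fin 3 → F, v ≠ 0 ∧
      (x : Matrix (Fin 3) (Fin 3) F) *ᵥ v = ((![a, a * w, a * w ^ 2] j : Fˣ) : F) • v
  · have hinj : Function.Injective (![a, a * w, a * w ^ 2] : Fin 3 → Fˣ) := by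
      intro i j h
      have h2 : w ^ 2 ≠ 1 := fun h => H.ne_one (by rw [← H.cube, ← hwd, pow_succ w 2, h, one_mul])
      have h3 : w ^ 2 ≠ w := fun h => H.ne_one (by rw [sq, mul_eq_left] at h; exact h)
      have h4 : w ≠ 1 := H.ne_one
      revert h
      fin_cases i <;> fin_cases j <;>
        simp [h2, h3, h4, Ne.symm h2, Ne.symm h3, Ne.symm h4]
    obtain ⟨k, hk, hxk⟩ := diag_three C hx _ (fun i => by
      fin_cases i
      · simpa using hnorm 0
      · simpa using hnorm 1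
      · simpa using hnorm 2) hinj hall
    obtain ⟨G, hG, hGe⟩ := transport C (y := Dg ![a, a * w, a * w ^ 2]) (k' := 1) hk (one_mem _) H.mem hxk (by simp)
    refine ⟨G, hG, hGe ▸ conj_mem H hR (U := A0 w) (V := Dg ![w, w, w] * P0 F) H.hA ?_ ?_ ?_⟩
    · rw [← conj_mul]
      refine R.mul_mem ?_ H.hP
      simpa using hsc 1
    · exact Dg_comm _ _
    · refine Units.ext (Matrix.ext fun i j => ?_)
      simp only [Units.val_mul, Dg_val, mul_assoc, Matrix.mul_diagonal, Matrix.diagonal_mul]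
      fin_cases i <;> fin_cases j <;> simp [P0] <;> first
        | ring1
        | linear_combination (a : F) * hw
        | linear_combination -(a : F) * hw
  · push Not at hall
    obtain ⟨j, hj⟩ := hall
    set M := (x : Matrix (Fin 3) (Fin 3) F)
    obtain ⟨n, hn⟩ : ∃ n : ℕ, ![a, a * w, a * w ^ 2] j = a * w ^ n :=
      ⟨j, by fin_cases j <;> simp⟩
    have hprod : ∀ u, (fun v => M *ᵥ v - ((a * w ^ n : Fˣ) : F) • v)
        ((M - ((a * w ^ (n + 1) : Fˣ) : F) • 1) *ᵥ ((M - ((a * w ^ (n + 2) : Fˣ) : F) • 1) *ᵥ u)) = 0 := by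
      intro u
      have h3 : M *ᵥ (M *ᵥ (M *ᵥ u)) = (a : F) ^ 3 • u := by
        rw [Matrix.mulVec_mulVec, Matrix.mulVec_mulVec, ← Units.val_mul, ← Units.val_mul, ← sq, ← pow_succ, hx3,
          Matrix.smul_mulVec, Matrix.one_mulVec]
      have hn3 : ((w : F) ^ n) ^ 3 = 1 := by rw [← pow_mul, mul_comm, pow_mul, hw, one_pow]
      simp only [Matrix.sub_mulVec, Matrix.smul_mulVec, Matrix.one_mulVec, Matrix.mulVec_sub, Matrix.mulVec_smul, h3,
        Units.val_mul, Units.val_pow_eq_pow_val, pow_add, pow_one]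
      match_scalars <;> first
        | linear_combination -((a : F) * (w : F) ^ n) * hws
        | linear_combination ((a : F) ^ 2 * ((w : F) ^ n) ^ 2 * (w : F)) * hws
        | linear_combination -((a : F) ^ 3 * ((w : F) ^ n) ^ 3) * hw - (a : F) ^ 3 * hn3
    have hQ : (M - ((a * w ^ (n + 1) : Fˣ) : F) • 1) * (M - ((a * w ^ (n + 2) : Fˣ) : F) • 1) = 0 := by
      refine Matrix.ext_iff_mulVec.2 fun u => ?_
      rw [Matrix.zero_mulVec, ← Matrix.mulVec_mulVec]
      by_contra h0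
      exact hj _ h0 (by rw [hn]; exact sub_eq_zero.1 (hprod u))
    have hne : a * w ^ (n + 1) ≠ a * w ^ (n + 2) := fun h => H.ne_one (by
      have h1 := mul_left_cancel h
      rw [pow_succ w (n + 1), left_eq_mul] at h1
      exact h1)
    have fin : ∀ (i₁ i₂ : ℕ) (k : GL (Fin 3) F), k ∈ Cfsg.GU 3 F q →
        x * k = k * Dg ![a * w ^ i₁, a * w ^ i₂, a * w ^ i₂] →
        ∃ G ∈ Cfsg.GU 3 F q ⊓ Cfsg.Geo.specialLinear (Fin 3) F, G⁻¹ * x * G ∈ Cfsg.Geo.subgroupNormalizer R := by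
      intro i₁ i₂ k hk hxk
      obtain ⟨G, hG, hGe⟩ := transport C (y := Dg ![a * w ^ i₁, a * w ^ i₂, a * w ^ i₂]) (k' := 1) hk (one_mem _)
        H.mem hxk (by simp)
      -- the ratio of the two eigenvalues
      obtain ⟨e, he⟩ : ∃ e : ℕ, e = i₁ + 2 * i₂ := ⟨_, rfl⟩
      refine ⟨G, hG, hGe ▸ conj_mem H hR (U := A0 w) (V := Dg ![w ^ e, w ^ e, w ^ e] * A0 w ^ e * P0 F) H.hA ?_ ?_ ?_⟩
      · rw [← conj_mul, ← conj_mul, ← conj_pow]
        exact R.mul_mem (R.mul_mem (hsc e) (R.pow_mem H.hA e)) H.hP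
      · exact Dg_comm _ _
      · have hu : ((w : F) ^ i₁) ^ 3 = 1 := by rw [← pow_mul, mul_comm, pow_mul, hw, one_pow]
        have hv : ((w : F) ^ i₂) ^ 3 = 1 := by rw [← pow_mul, mul_comm, pow_mul, hw, one_pow]
        have hE : (w : F) ^ e = (w : F) ^ i₁ * ((w : F) ^ i₂) ^ 2 := by rw [he, pow_add, mul_comm 2 i₂, pow_mul]
        have hE2 : ((w : F) ^ 2) ^ e = ((w : F) ^ i₁ * ((w : F) ^ i₂) ^ 2) ^ 2 := by
          rw [← pow_mul, mul_comm 2 e, pow_mul, hE]
        refine Units.ext (Matrix.ext fun i j => ?_)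
        simp only [A0, Dg_pow, Units.val_mul, Dg_val, mul_assoc, Matrix.mul_diagonal, Matrix.diagonal_mul]
        fin_cases i <;> fin_cases j <;> simp [P0, hE, hE2, ← hwd]
        all_goals first
          | ring1
          | linear_combination (-(a : F) * (w : F) ^ i₁) * hv
          | linear_combination (-(a : F) * (w : F) ^ i₂ * ((w : F) ^ i₂) ^ 3) * hu + (-(a : F) * (w : F) ^ i₂) * hv
          | linear_combination (-(a : F) * (w : F) ^ i₂ * ((w : F) ^ i₂) ^ 6) * hu +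
              (-(a : F) * (w : F) ^ i₂ * (((w : F) ^ i₂) ^ 3 + 1)) * hv
    rcases diag_two C hx (hnorm (n + 1)) (hnorm (n + 2)) hne hQ hns with ⟨k, hk, hxk⟩ | ⟨k, hk, hxk⟩
    · exact fin _ _ k hk hxk
    · exact fin _ _ k hk hxk

omit C in
/-- No element of larger prime order normalises `R` except scalars. -/
theorem scalar_of_normalizes (hR : Nat.card R = 27) {r : ℕ} [hr : Fact r.Prime] (hr5 : 5 ≤ r)
    {y : GL (Fin 3) F} (hy : y ^ r = 1) (hyN : y ∈ Cfsg.Geo.subgroupNormalizer R) :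
    ∃ c : F, (y : Matrix (Fin 3) (Fin 3) F) = c • 1 := by
  classical
  haveI : Finite R := Nat.finite_of_card_ne_zero (by omega)
  haveI : Fintype R := Fintype.ofFinite R
  have hN := Subgroup.mem_normalizer_iff.1 (show y ∈ Subgroup.normalizer (R : Set (GL (Fin 3) F)) from hyN)
  let f : Function.End R := fun t => ⟨y * t * y⁻¹, (hN _).1 t.2⟩
  have hpow : ∀ (k : ℕ) (t : R), ((f ^ k) t : GL (Fin 3) F) = y ^ k * t * (y ^ k)⁻¹ := by
    intro k
    induction k with
    | zero => intro t; simp; rfl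
    | succ k ih =>
      intro t
      rw [pow_succ']
      show y * ((f ^ k) t : GL (Fin 3) F) * y⁻¹ = _
      rw [ih, pow_succ']
      group
  have hfr : f ^ (r ^ 1) = 1 := funext fun t => Subtype.ext (by rw [hpow, pow_one, hy]; simp; rfl)
  have hmod := Equiv.Perm.card_fixedPoints_modEq hfr
  -- the centraliser
  let K : Subgroup R := (Subgroup.centralizer {y}).subgroupOf R
  have hK : Fintype.card (Function.fixedPoints f) = Nat.card K := by
    rw [← Nat.card_eq_fintype_card]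
    refine Nat.card_congr (Equiv.subtypeEquivRight fun t => ?_)
    show f t = t ↔ (t : GL (Fin 3) F) ∈ Subgroup.centralizer {y}
    rw [Subgroup.mem_centralizer_singleton_iff, Subtype.ext_iff]
    show y * t * y⁻¹ = t ↔ _
    rw [mul_inv_eq_iff_eq_mul]
    exact eq_comm
  rw [← Nat.card_eq_fintype_card, hR, hK] at hmod
  have hd : Nat.card K ∣ 27 := hR ▸ Subgroup.card_subgroup_dvd_card K
  have hone : Nat.card K ≠ 1 := by
    intro h1
    have hS : H.g * Dg ![H.w, H.w, H.w] * H.g⁻¹ ∈ R := by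
      have h2 : H.g * Dg ![H.w, H.w, H.w] * H.g⁻¹ =
          (H.g * A0 H.w * H.g⁻¹) * (H.g * P0 F * H.g⁻¹) * ((H.g * P0 F * H.g⁻¹) * (H.g * A0 H.w * H.g⁻¹))⁻¹ := by
        rw [eq_mul_inv_iff_mul_eq]
        calc _ = H.g * (Dg ![H.w, H.w, H.w] * (P0 F * A0 H.w)) * H.g⁻¹ := by group
          _ = H.g * (A0 H.w * P0 F) * H.g⁻¹ := by rw [A0_P0 H.cube]
          _ = _ := by group
      rw [h2]
      exact R.mul_mem (R.mul_mem H.hA H.hP) (R.inv_mem (R.mul_mem H.hP H.hA))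
    have hval : ((Dg ![H.w, H.w, H.w] : GL (Fin 3) F) : Matrix (Fin 3) (Fin 3) F) = (H.w : F) • 1 := by
      rw [Dg_val]; ext i j; fin_cases i <;> fin_cases j <;> simp
    have hc : ∀ g : GL (Fin 3) F, g * Dg ![H.w, H.w, H.w] = Dg ![H.w, H.w, H.w] * g := fun g => Units.ext (by
      rw [Units.val_mul, Units.val_mul, hval, Matrix.mul_smul, mul_one, Matrix.smul_mul, one_mul])
    have hSe : H.g * Dg ![H.w, H.w, H.w] * H.g⁻¹ = Dg ![H.w, H.w, H.w] := by rw [hc, mul_inv_cancel_right]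
    rw [hSe] at hS
    have hin : (⟨_, hS⟩ : R) ∈ K := by
      show Dg ![H.w, H.w, H.w] ∈ Subgroup.centralizer {y}
      rw [Subgroup.mem_centralizer_singleton_iff]
      exact (hc y).symm
    rw [Subgroup.eq_bot_of_card_eq _ h1, Subgroup.mem_bot] at hin
    have h3 := congrArg (fun g : GL (Fin 3) F => (g : Matrix (Fin 3) (Fin 3) F) 0 0) (congrArg Subtype.val hin)
    simp [Dg_val] at h3
    exact H.ne_one h3
  have hall : Nat.card K = 27 := by
    have h3 : Nat.card K ∈ Nat.divisors 27 := Nat.mem_divisors.2 ⟨hd, by norm_num⟩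
    rw [show Nat.divisors 27 = {1, 3, 9, 27} by decide] at h3
    simp only [Finset.mem_insert, Finset.mem_singleton] at h3
    have key : ∀ c, 27 ≡ c [MOD r] → c ≤ 27 → r ∣ 27 - c := fun c h hc => (Nat.modEq_iff_dvd' hc).1 h.symm
    rcases h3 with h3 | h3 | h3 | h3
    · exact absurd h3 hone
    · exfalso
      have h4 := key 3 (h3 ▸ hmod) (by norm_num)
      have h5 : r ∈ Nat.divisors 24 := Nat.mem_divisors.2 ⟨h4, by norm_num⟩
      rw [show Nat.divisors 24 = {1, 2, 3, 4, 6, 8, 12, 24} by decide] at h5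
      simp only [Finset.mem_insert, Finset.mem_singleton] at h5
      have hp := hr.out
      rcases h5 with h5 | h5 | h5 | h5 | h5 | h5 | h5 | h5 <;> subst h5 <;> first | omega | norm_num at hp
    · exfalso
      have h4 := key 9 (h3 ▸ hmod) (by norm_num)
      have h5 : r ∈ Nat.divisors 18 := Nat.mem_divisors.2 ⟨h4, by norm_num⟩
      rw [show Nat.divisors 18 = {1, 2, 3, 6, 9, 18} by decide] at h5
      simp only [Finset.mem_insert, Finset.mem_singleton] at h5
      have hp := hr.out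
      rcases h5 with h5 | h5 | h5 | h5 | h5 | h5 <;> subst h5 <;> first | omega | norm_num at hp
    · exact h3
  have htop : K = ⊤ := Subgroup.eq_top_of_card_eq K (by rw [hall, hR])
  have hcomm : ∀ t ∈ R, t * y = y * t := fun t ht => by
    have : (⟨t, ht⟩ : R) ∈ K := htop ▸ Subgroup.mem_top _
    exact Subgroup.mem_centralizer_singleton_iff.1 this
  have hconj : ∀ t, H.g * t * H.g⁻¹ ∈ R → (H.g⁻¹ * y * H.g) * t = t * (H.g⁻¹ * y * H.g) := fun t ht => by
    have h := hcomm _ ht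
    calc (H.g⁻¹ * y * H.g) * t = H.g⁻¹ * (y * (H.g * t * H.g⁻¹)) * H.g := by group
      _ = H.g⁻¹ * ((H.g * t * H.g⁻¹) * y) * H.g := by rw [h]
      _ = _ := by group
  obtain ⟨c, hc⟩ := scalar_of_comm H.cube H.ne_one (hconj _ H.hA) (hconj _ H.hP)
  refine ⟨c, ?_⟩
  have : y = H.g * (H.g⁻¹ * y * H.g) * H.g⁻¹ := by group
  rw [this, Units.val_mul, Units.val_mul, hc, Matrix.mul_smul, mul_one, Matrix.smul_mul, ← Units.val_mul,
    mul_inv_cancel, Units.val_one]

end CfsgLib.HeisU3
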